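import Mathlib
import Cfsg.Prelude.Def_HallClasses
import Cfsg.Agent.Lib.SolvStruct.HallMisc

/-!
Chunikhin's theorem: the class `C_π` is closed under extensions (assuming the odd order theorem
as an explicit hypothesis).
-/

set_option autoImplicit false

namespace CfsgLib.SolvStruct

open Subgroup Pointwise Cfsg CfsgLib.Coprime

universe u

variable {G : Type u} [Group G]

theorem solvable_or_of_coprime
    (hFT : ∀ (Q : Type u) [Group Q] [Finite Q], Odd (Nat.card Q) → Group.IsSolvable Q)
    {U M : Type u} [Group U] [Group M] [Finite U] [Finite M]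
    (h : (Nat.card U).Coprime (Nat.card M)) : Group.IsSolvable U ∨ Group.IsSolvable M := by
  rcases Nat.even_or_odd (Nat.card U) with h1 | h1
  · right
    apply hFT
    rw [← Nat.coprime_two_left]
    exact h.coprime_dvd_left h1.two_dvd
  · exact Or.inl (hFT U h1)

theorem exists_conj_of_isCPiGroup {π : Set ℕ} {A : Subgroup G} (hA : IsCPiGroup π A)
    {H K : Subgroup G} (hH : IsPiHallOf π H A) (hK : IsPiHallOf π K A) :
    ∃ a ∈ A, MulAut.conj a • H = K := by
  obtain ⟨a, ha⟩ := hA.2 _ _ ((isPiHallOf_iff_subgroupOf hH.1).1 hH)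
    ((isPiHallOf_iff_subgroupOf hK.1).1 hK)
  refine ⟨a, a.2, ?_⟩
  have := congrArg (Subgroup.map A.subtype) ha
  rw [← conj_smul_eq_map, map_subtype_conj_smul, subgroupOf_map_subtype, subgroupOf_map_subtype,
    inf_eq_left.2 hH.1, inf_eq_left.2 hK.1] at this
  exact this.symm

theorem isPiNum_card_map_quotient {π : Set ℕ} [Finite G] {A H₀ : Subgroup G}
    (hH₀ : IsPiHallOf π H₀ A) (N : Subgroup G) (hN : H₀ ≤ N) [(H₀.subgroupOf N).Normal] :
    IsPiNum πᶜ (Nat.card ((A.subgroupOf N).map (QuotientGroup.mk' (H₀.subgroupOf N)))) := by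
  have h1 := CfsgLib.Core.card_map_mk'_mul_card_inf (A.subgroupOf N) (H₀.subgroupOf N)
  have h2 : H₀.subgroupOf N ≤ A.subgroupOf N := comap_mono hH₀.1
  rw [inf_eq_right.2 h2, card_subgroupOf_of_le hN, card_subgroupOf,
    ← card_mul_relIndex (le_inf hH₀.1 hN), mul_comm] at h1
  rw [Nat.eq_of_mul_eq_mul_left Nat.card_pos h1]
  refine (isPiHallOf_iff.1 hH₀).2.2.of_dvd ?_
  rw [← relIndex_mul_relIndex H₀ (A ⊓ N) A (le_inf hH₀.1 hN) inf_le_left]
  exact dvd_mul_right _ _

theorem isCPiGroup_of_normal [Finite G]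
    (hFT : ∀ (Q : Type u) [Group Q] [Finite Q], Odd (Nat.card Q) → Group.IsSolvable Q)
    (π : Set ℕ) (A : Subgroup G) [hAn : A.Normal] (hA : IsCPiGroup π A)
    (hQ : IsCPiGroup π (G ⧸ A)) : IsCPiGroup π G := by
  constructor
  · obtain ⟨H₁, hH₁⟩ := hA.1
    obtain ⟨Kb, hKb⟩ := hQ.1
    set H₀ := H₁.map A.subtype with hH₀def
    have hH₀ : IsPiHallOf π H₀ A := isPiHallOf_map_subtype.2 hH₁
    set N := normalizer (H₀ : Set G) with hN
    have hAN : A ⊔ N = ⊤ := by
      rw [eq_top_iff]
      intro g _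
      obtain ⟨a, ha, e⟩ := exists_conj_of_isCPiGroup hA hH₀
        (isPiHallOf_conj_smul hH₀ (g := g) (normalizer_eq_top A ▸ mem_top g))
      have : a⁻¹ * g ∈ N := by
        rw [hN, mem_normalizer_iff_conj_smul_eq, ← conj_smul_smul, ← e, conj_smul_smul]
        simp
      have h2 := mul_mem (mem_sup_left ha : a ∈ A ⊔ N) (mem_sup_right this)
      rwa [mul_inv_cancel_left] at h2
    set K := Kb.comap (QuotientGroup.mk' A) with hK
    have hAK : A ≤ K := le_comap_mk' A Kb
    set f := QuotientGroup.mk' (H₀.subgroupOf N) with hf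
    have hm := isPiNum_card_map_quotient hH₀ N le_normalizer
    have hmn : ((A.subgroupOf N).map f).Normal :=
      Normal.map inferInstance _ (QuotientGroup.mk'_surjective _)
    have hrel : ((A.subgroupOf N).map f).relIndex ((K.subgroupOf N).map f) ∣ Nat.card Kb := by
      rw [relIndex_map_map, QuotientGroup.ker_mk', 
        (sup_eq_left (a := A.subgroupOf N) (b := H₀.subgroupOf N)).2 (comap_mono hH₀.1),
        (sup_eq_left (a := K.subgroupOf N) (b := H₀.subgroupOf N)).2 (comap_mono (hH₀.1.trans hAK)), ← inf_subgroupOf_right K,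
        relIndex_subgroupOf inf_le_right]
      have h1 := CfsgLib.Core.card_map_mk'_mul_card_inf (K ⊓ N) A
      rw [← CfsgLib.Core.card_inf_mul_relIndex A (K ⊓ N), inf_comm A, mul_comm] at h1
      rw [← Nat.eq_of_mul_eq_mul_left Nat.card_pos h1]
      exact card_dvd_of_le (map_le_iff_le_comap.2 inf_le_left)
    have hπ : IsPiNum π (((A.subgroupOf N).map f).relIndex ((K.subgroupOf N).map f)) :=
      (isPiHall_iff.1 hKb).1.of_dvd hrel
    obtain ⟨L, -, -, h3, h4⟩ := exists_complement_of_le_normalizer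
      (map_mono (comap_mono hAK) : (A.subgroupOf N).map f ≤ (K.subgroupOf N).map f)
      (normalizer_eq_top ((A.subgroupOf N).map f) ▸ le_top) (hπ.coprime hm).symm
    refine ⟨(L.comap f).map N.subtype, isPiHall_iff.2 ⟨?_, ?_⟩⟩
    · rw [card_map_subtype, card_comap_mk', card_subgroupOf_of_le le_normalizer, h4]
      exact (isPiHallOf_iff.1 hH₀).2.1.mul hπ
    · set L' := (L.comap f).map N.subtype with hL'
      have h5 : H₀ ≤ L' := by
        intro x hx
        exact ⟨⟨x, le_normalizer hx⟩, le_comap_mk' _ L hx, rfl⟩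
      have h6 : K ≤ L' ⊔ A := by
        have h7 : K = A ⊔ (N ⊓ K) := by
          rw [← CfsgLib.Core.sup_inf_assoc_of_normal_left hAK, hAN, top_inf_eq]
        refine h7.le.trans (sup_le le_sup_right ?_)
        intro x hx
        have h8 : f ⟨x, hx.1⟩ ∈ (A.subgroupOf N).map f ⊔ L := h3 ▸ ⟨⟨x, hx.1⟩, hx.2, rfl⟩
        obtain ⟨_, ⟨a, ha, rfl⟩, l, hl, e⟩ := mem_sup_of_normal_left.1 h8
        have h9 : ((a⁻¹ * ⟨x, hx.1⟩ : N) : G) ∈ L' := by
          refine ⟨a⁻¹ * ⟨x, hx.1⟩, ?_, rfl⟩
          rw [SetLike.mem_coe, mem_comap, map_mul, map_inv, ← e, inv_mul_cancel_left]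
          exact hl
        have := mul_mem (mem_sup_right ha : (a : G) ∈ L' ⊔ A) (mem_sup_left h9)
        simpa using this
      rw [← relIndex_mul_index (le_sup_left : L' ≤ L' ⊔ A)]
      apply IsPiNum.mul
      · refine (isPiHallOf_iff.1 hH₀).2.2.of_dvd ?_
        have := (isFactor_of_sup_eq_top_of_normal_right (H := L'.subgroupOf (L' ⊔ A))
          (K := A.subgroupOf (L' ⊔ A))
          (by rw [← subgroupOf_sup le_sup_left le_sup_right, subgroupOf_self])).index_eq_relIndex
        rw [relIndex_subgroupOf le_sup_right] at this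
        rw [relIndex, this]
        exact relIndex_dvd_of_le_left A h5
      · refine (isPiHall_iff.1 hKb).2.of_dvd ?_
        rw [← index_comap_mk' A Kb]
        exact index_dvd_of_le h6
  · have hfs := QuotientGroup.mk'_surjective A
    suffices h : ∀ H K : Subgroup G, IsPiHall π H → IsPiHall π K → H ⊔ A = K ⊔ A →
        H ⊓ A = K ⊓ A → ∃ g : G, MulAut.conj g • H = K by
      intro H K hH hK
      obtain ⟨x, hx⟩ := hQ.2 _ _ (isPiHall_map_of_surjective hfs hH)
        (isPiHall_map_of_surjective hfs hK)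
      obtain ⟨x, rfl⟩ := hfs x
      have h1 : MulAut.conj x • H ⊔ A = K ⊔ A := by
        rw [← comap_map_mk', ← comap_map_mk', hx, conj_smul_eq_map, map_map, map_map]
        congr 2
      have hH' := isPiHall_conj_smul hH x
      obtain ⟨a, ha, e⟩ := exists_conj_of_isCPiGroup hA (isPiHallOf_inf_of_normal hH' A)
        (isPiHallOf_inf_of_normal hK A)
      have hAa : MulAut.conj a • A = A := conj_smul_eq_of_mem_normalizer (le_normalizer ha)
      obtain ⟨g, hg⟩ := h _ K (isPiHall_conj_smul hH' a) hK (by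
        rw [← h1, ← hAa, ← Subgroup.smul_sup, hAa]
        exact conj_smul_eq_of_mem_normalizer (le_normalizer (mem_sup_right ha))) (by
        rw [← e, Subgroup.smul_inf, hAa])
      exact ⟨g * (a * x), by rw [← hg, conj_smul_smul, conj_smul_smul, mul_assoc, conj_smul_eq_map]⟩
    intro H K hH hK h1 h2
    set H₀ := K ⊓ A with hH₀def
    have hH₀ : IsPiHallOf π H₀ A := isPiHallOf_inf_of_normal hK A
    set N := normalizer (H₀ : Set G) with hN
    have hKN : K ≤ N := le_normalizer_inf le_normalizer (normalizer_eq_top A ▸ le_top)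
    have hHN : H ≤ N := by
      rw [hN, ← h2]
      exact le_normalizer_inf le_normalizer (normalizer_eq_top A ▸ le_top)
    set f := QuotientGroup.mk' (H₀.subgroupOf N) with hf
    have hm := isPiNum_card_map_quotient hH₀ N le_normalizer
    have hmn : ((A.subgroupOf N).map f).Normal :=
      Normal.map inferInstance _ (QuotientGroup.mk'_surjective _)
    have hcop : (Nat.card ((H.subgroupOf N).map f)).Coprime (Nat.card ((A.subgroupOf N).map f)) := by
      refine IsPiNum.coprime ((isPiHall_iff.1 hH).1.of_dvd ?_) hm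
      exact (card_map_dvd _ _).trans (card_subgroupOf_of_le hHN).dvd
    obtain ⟨k, -, hk⟩ := exists_conj_smul_le_of_le_sup (K := (A.subgroupOf N).map f)
      (A := (H.subgroupOf N).map f) (S := (K.subgroupOf N).map f)
      (normalizer_eq_top ((A.subgroupOf N).map f) ▸ le_top) (by
        rw [← Subgroup.map_sup]
        apply map_mono
        intro x hx
        have h3 : (x : G) ∈ K ⊔ A := h1 ▸ mem_sup_left hx
        obtain ⟨y, hy, a, ha, e⟩ := mem_sup_of_normal_right.1 h3
        have h4 : x = ⟨y, hKN hy⟩ * (⟨y, hKN hy⟩⁻¹ * x) := by simp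
        rw [h4]
        refine mul_mem (mem_sup_right hy) (mem_sup_left ?_)
        change y⁻¹ * x ∈ A
        rw [← e, inv_mul_cancel_left]
        exact ha) hcop (solvable_or_of_coprime hFT hcop)
    obtain ⟨k, rfl⟩ := QuotientGroup.mk'_surjective _ k
    refine ⟨k, CfsgLib.Core.eq_of_le_of_card_le ?_ ?_⟩
    · rw [conj_smul_le_iff]
      intro x hx
      have h3 := conj_smul_le_iff.1 hk _ ⟨⟨x, hHN hx⟩, hx, rfl⟩
      rw [← map_inv, ← map_mul, ← map_mul, ← mem_comap, comap_map_mk',
        (sup_eq_left (a := K.subgroupOf N) (b := H₀.subgroupOf N)).2 (comap_mono inf_le_left)] at h3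
      exact h3
    · rw [card_conj_smul, card_eq_of_isPiHall hH hK]

end CfsgLib.SolvStruct
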