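import Mathlib

/-!
Automorphisms of odd order of doubly transitive groups.
-/

set_option autoImplicit false

namespace CfsgLib.SolvStruct

open MulAction Matrix

theorem oddAut_arith {n k d lam a b : ℤ} {t : ℕ} (ht : Odd t) (h1 : k = d + lam)
    (h2 : k ^ 2 = d + lam * n) (h3 : k ^ t = a + b * n) (h4 : a ^ 2 = d ^ t) (hl : 0 ≤ lam)
    (hd : 0 ≤ d) (hk : 1 ≤ k) (hkn : k ≤ n) (hc : IsCoprime k n) : k = 1 ∨ k = n - 1 := by
  rcases hd.eq_or_lt with hd | hd
  · subst hd
    have : k = n := by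
      have : k * k = k * n := by rw [h1] at h2 ⊢; linear_combination h2
      exact mul_left_cancel₀ (by omega) this
    subst this
    left
    rcases Int.isUnit_iff.1 (isCoprime_self.1 hc) with h | h <;> omega
  obtain ⟨j, rfl⟩ := ht
  have hdj : d ^ j ≠ 0 := pow_ne_zero _ hd.ne'
  obtain ⟨u, rfl⟩ : d ^ j ∣ a := by
    rw [← Int.pow_dvd_pow_iff two_ne_zero, h4]
    exact ⟨d, by ring⟩
  have hu : u ^ 2 = d := by
    have : (d ^ j) ^ 2 * u ^ 2 = (d ^ j) ^ 2 * d := by linear_combination h4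
    exact mul_left_cancel₀ (pow_ne_zero _ hdj) this
  have h5 : n ∣ (k ^ 2) ^ j - d ^ j := (show n ∣ k ^ 2 - d from ⟨lam, by linear_combination h2⟩).trans
    (sub_dvd_pow_sub_pow _ _ _)
  obtain ⟨c, hc'⟩ : n ∣ k - u := by
    apply (IsCoprime.pow_right (n := 2 * j) hc.symm).dvd_of_dvd_mul_left
    obtain ⟨e, he⟩ := h5
    exact ⟨b - u * e, by linear_combination h3 - u * he⟩
  have h6 : lam = c * (k + u) := by
    have : n * lam = n * (c * (k + u)) := by linear_combination -h2 + hu + (k + u) * hc'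
    exact mul_left_cancel₀ (by omega) this
  rcases hl.eq_or_lt with hl | hl
  · left
    have : k * k = k * 1 := by rw [← hl] at h1 h2; linear_combination h2 - h1
    exact mul_left_cancel₀ (by omega) this
  right
  have h7 : u < k := by nlinarith
  have h8 : -k < u := by nlinarith
  have h9 : 1 ≤ c := by nlinarith
  have h10 : c < 2 := by nlinarith
  have h11 : c = 1 := by omega
  subst h11
  have h12 : u * (u + 1) = 0 := by linear_combination hu - h1 - h6
  rcases mul_eq_zero.1 h12 with h | h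
  · rw [h] at hu; omega
  · omega

variable {G Ω : Type*} [Group G] [MulAction G Ω]

/-- Twisted invariance of a matrix. -/
def TwInv (β : MulAut G) (M : Matrix Ω Ω ℤ) : Prop := ∀ (g : G) x y, M (g • x) (β g • y) = M x y

theorem TwInv.mul [Fintype Ω] {β γ : MulAut G} {M N : Matrix Ω Ω ℤ} (hM : TwInv β M)
    (hN : TwInv γ N) : TwInv (γ * β) (M * N) := by
  intro g x y
  rw [mul_apply, mul_apply, ← Equiv.sum_comp (MulAction.toPerm (β g))]
  refine Finset.sum_congr rfl fun z _ => ?_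
  rw [toPerm_apply, hM, MulAut.mul_apply, hN]

theorem TwInv.transpose {β : MulAut G} {M : Matrix Ω Ω ℤ} (hM : TwInv β M) :
    TwInv β⁻¹ Mᵀ := by
  intro g x y
  rw [transpose_apply, transpose_apply, ← hM (β⁻¹ g) y x, MulAut.apply_inv_self]

theorem TwInv.pow [Fintype Ω] [DecidableEq Ω] {β : MulAut G} {M : Matrix Ω Ω ℤ} (hM : TwInv β M)
    (n : ℕ) : TwInv (β ^ n) (M ^ n) := by
  induction n with
  | zero =>
    intro g x y
    simp [one_apply]
  | succ n ih => rw [pow_succ', pow_succ]; exact ih.mul hM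

theorem TwInv.eq_of_two [DecidableEq Ω] (h2 : IsMultiplyPretransitive G Ω 2) {M : Matrix Ω Ω ℤ}
    (hM : TwInv (1 : MulAut G) M) {o o' : Ω} (ho : o ≠ o') :
    M = (M o o - M o o') • (1 : Matrix Ω Ω ℤ) + M o o' • Matrix.of fun _ _ => 1 := by
  rw [is_two_pretransitive_iff] at h2
  ext x y
  by_cases hxy : x = y
  · subst hxy
    obtain ⟨z, hz⟩ : ∃ z, x ≠ z := by
      by_cases h : x = o
      · exact ⟨o', h ▸ ho⟩
      · exact ⟨o, h⟩
    obtain ⟨g, hg, -⟩ := h2 ho hz
    have := hM g o o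
    simp only [MulAut.one_apply, hg] at this
    simp only [this, Matrix.add_apply, Matrix.smul_apply, one_apply_eq, of_apply, smul_eq_mul]
    ring
  · obtain ⟨g, hg, hg'⟩ := h2 ho hxy
    have := hM g o o'
    simp only [MulAut.one_apply, hg, hg'] at this
    simp only [this, Matrix.add_apply, Matrix.smul_apply, one_apply_ne hxy, of_apply, smul_eq_mul]
    ring

theorem oddAut_orbit [Fintype Ω] (h2 : IsMultiplyPretransitive G Ω 2) (o : Ω) (α : MulAut G)
    (hα : Odd (orderOf α)) (ω : Ω)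
    (hk : (Nat.card (orbit ((stabilizer G o).map α.toMonoidHom) ω)).Coprime (Fintype.card Ω)) :
    Nat.card (orbit ((stabilizer G o).map α.toMonoidHom) ω) = 1 ∨
      Nat.card (orbit ((stabilizer G o).map α.toMonoidHom) ω) = Fintype.card Ω - 1 := by
  classical
  set O := orbit ((stabilizer G o).map α.toMonoidHom) ω with hO
  have hk1 : 1 ≤ Nat.card O := by
    have : Nonempty O := ⟨⟨ω, mem_orbit_self ω⟩⟩
    exact Nat.card_pos
  have hkn : Nat.card O ≤ Fintype.card Ω := by
    rw [← Nat.card_eq_fintype_card]; exact Finite.card_subtype_le _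
  by_cases hn : Fintype.card Ω ≤ 1
  · left; omega
  obtain ⟨o', ho⟩ := Fintype.exists_ne_of_one_lt_card (not_le.1 hn) o
  have ho := ho.symm
  have htr : ∀ x y : Ω, ∃ g : G, g • x = y := fun x y =>
    (isPretransitive_of_is_two_pretransitive (G := G) (α := Ω)).exists_smul_eq x y
  let A : Matrix Ω Ω ℤ := Matrix.of fun x y => if ∃ g : G, g • o = x ∧ α g • ω = y then 1 else 0
  have hA : TwInv α A := by
    intro g x y
    simp only [A, of_apply]
    congr 1
    apply propext
    constructor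
    · rintro ⟨h, h1, h2⟩
      exact ⟨g⁻¹ * h, by rw [mul_smul, h1, inv_smul_smul],
        by rw [map_mul, mul_smul, h2, map_inv, inv_smul_smul]⟩
    · rintro ⟨h, h1, h2⟩
      exact ⟨g * h, by rw [mul_smul, h1], by rw [map_mul, mul_smul, h2]⟩
  set k : ℤ := (Nat.card O : ℤ) with hkdef
  set n : ℤ := (Fintype.card Ω : ℤ) with hndef
  have hrow0 : ∑ y, A o y = k := by
    simp only [A, of_apply, Finset.sum_boole, hkdef, Nat.cast_inj]
    rw [Nat.card_eq_card_toFinset]
    congr 1
    ext y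
    simp only [Finset.mem_filter, Finset.mem_univ, true_and, Set.mem_toFinset, hO, mem_orbit_iff]
    constructor
    · rintro ⟨g, h1, h2⟩
      exact ⟨⟨α g, g, h1, rfl⟩, h2⟩
    · rintro ⟨⟨_, g, h1, rfl⟩, h2⟩
      exact ⟨g, h1, h2⟩
  have hrow : ∀ x, ∑ y, A x y = k := by
    intro x
    obtain ⟨g, rfl⟩ := htr o x
    rw [← Equiv.sum_comp (MulAction.toPerm (α g)), ← hrow0]
    exact Finset.sum_congr rfl fun y _ => hA g o y
  have hcol0 : ∀ y, ∑ x, A x y = ∑ x, A x o := by
    intro y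
    obtain ⟨g, rfl⟩ := htr o y
    rw [← Equiv.sum_comp (MulAction.toPerm (α⁻¹ g))]
    refine Finset.sum_congr rfl fun x _ => ?_
    rw [← hA (α⁻¹ g) x o, MulAut.apply_inv_self, toPerm_apply]
  have hcol : ∀ y, ∑ x, A x y = k := by
    intro y
    have h1 : ∑ y, ∑ x, A x y = ∑ x, ∑ y, A x y := Finset.sum_comm
    simp only [hcol0, hrow, Finset.sum_const, Finset.card_univ, nsmul_eq_mul] at h1
    rw [hcol0]
    exact mul_left_cancel₀ (by omega) h1
  have hA1 : A *ᵥ (fun _ => 1) = k • fun _ => 1 := by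
    ext x; simp [mulVec, dotProduct, hrow]
  have hA1' : Aᵀ *ᵥ (fun _ => 1) = k • fun _ => 1 := by
    ext x; simp [mulVec, dotProduct, hcol]
  have hB := (hA.mul hA.transpose)
  rw [inv_mul_cancel] at hB
  have hC := hA.pow (orderOf α)
  rw [pow_orderOf_eq_one] at hC
  have eB := hB.eq_of_two h2 ho
  have eC := hC.eq_of_two h2 ho
  set lam := (A * Aᵀ) o o' with hlam
  set d := (A * Aᵀ) o o - lam with hd
  set b := (A ^ orderOf α) o o' with hb
  set a := (A ^ orderOf α) o o - b with ha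
  have hJ : ∀ v : Ω → ℤ, v ⬝ᵥ (fun _ => 1) = 0 → v ᵥ* (Matrix.of fun _ _ : Ω => (1 : ℤ)) = 0 := by
    intro v hv
    ext y
    exact hv
  have h01 : ∀ x y, A x y = 0 ∨ A x y = 1 := by
    intro x y; simp only [A, of_apply]; split_ifs <;> simp
  have hdiag : (A * Aᵀ) o o = k := by
    rw [mul_apply, ← hrow0]
    refine Finset.sum_congr rfl fun y _ => ?_
    rw [transpose_apply]
    rcases h01 o y with h | h <;> simp [h]
  have hl0 : 0 ≤ lam := by
    rw [hlam, mul_apply]
    refine Finset.sum_nonneg fun y _ => ?_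
    rw [transpose_apply]
    rcases h01 o y with h | h <;> rcases h01 o' y with h' | h' <;> simp [h, h']
  have hlk : lam ≤ k := by
    rw [hlam, mul_apply, ← hrow0]
    refine Finset.sum_le_sum fun y _ => ?_
    rw [transpose_apply]
    rcases h01 o y with h | h <;> rcases h01 o' y with h' | h' <;> simp [h, h']
  have hpow1 : ∀ i : ℕ, (A ^ i) *ᵥ (fun _ => 1) = k ^ i • fun _ => 1 := by
    intro i
    induction i with
    | zero => simp
    | succ i ih => rw [pow_succ, ← mulVec_mulVec, hA1, mulVec_smul, ih, smul_smul, pow_succ']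
  have hJ1 : ∀ c e : ℤ, ((c • (1 : Matrix Ω Ω ℤ) + e • Matrix.of fun _ _ => 1) *ᵥ fun _ => 1) o =
      c + e * n := by
    intro c e
    rw [add_mulVec, smul_mulVec, smul_mulVec, one_mulVec]
    simp [mulVec, dotProduct, hndef]
  have e2 : k ^ 2 = d + lam * n := by
    have h1 : (A * Aᵀ) *ᵥ (fun _ => 1) = k ^ 2 • fun _ => 1 := by
      rw [← mulVec_mulVec, hA1', mulVec_smul, hA1, smul_smul, sq]
    rw [eB] at h1
    have := congrFun h1 o
    rw [hJ1] at this
    simpa using this.symm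
  have e3 : k ^ orderOf α = a + b * n := by
    have h1 := hpow1 (orderOf α)
    rw [eC] at h1
    have := congrFun h1 o
    rw [hJ1] at this
    simpa using this.symm
  have hv : ∀ (v : Ω → ℤ), v ⬝ᵥ (fun _ => 1) = 0 → ∀ i : ℕ, (v ᵥ* A ^ i) ⬝ᵥ (fun _ => 1) = 0 ∧
      (v ᵥ* A ^ i) ⬝ᵥ (v ᵥ* A ^ i) = d ^ i * (v ⬝ᵥ v) := by
    intro v hv i
    induction i with
    | zero => simp [hv]
    | succ i ih =>
      rw [pow_succ, ← vecMul_vecMul]
      set w := v ᵥ* A ^ i
      constructor
      · rw [← dotProduct_mulVec, hA1, dotProduct_smul, ih.1, smul_zero]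
      · rw [← mulVec_transpose A w]
        nth_rewrite 1 [mulVec_transpose]
        rw [dotProduct_mulVec, vecMul_vecMul, eB, vecMul_add, vecMul_smul, vecMul_smul, hJ w ih.1,
          vecMul_one, smul_zero, add_zero, smul_dotProduct, ih.2, pow_succ']
        simp [mul_assoc]
  have e4 : a ^ 2 = d ^ orderOf α := by
    let v : Ω → ℤ := Pi.single o 1 - Pi.single o' 1
    have h1 : v ⬝ᵥ (fun _ => 1) = 0 := by simp [v]
    have h3 : v ⬝ᵥ v = 2 := by simp [v, ho, ho.symm]
    have h4 := (hv v h1 (orderOf α)).2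
    rw [eC, vecMul_add, vecMul_smul, vecMul_smul, hJ v h1, vecMul_one, smul_zero, add_zero,
      smul_dotProduct, dotProduct_smul, h3] at h4
    simp only [smul_eq_mul] at h4
    linarith
  have := oddAut_arith hα (by rw [hd, hdiag]; ring) e2 e3 e4 hl0 (by rw [hd, hdiag]; omega)
    (by omega) (by omega) (Nat.isCoprime_iff_coprime.2 hk)
  omega

/-- If `α` maps a point stabiliser into a point stabiliser, it is induced by a permutation. -/
theorem exists_perm_of_fixed [Finite Ω] [IsPretransitive G Ω] {o ω : Ω} (α : MulAut G)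
    (h : ∀ g : G, g • o = o → α g • ω = ω) :
    ∃ σ : Equiv.Perm Ω, ∀ (g : G) (x : Ω), σ (g • x) = α g • σ x := by
  choose s hs using fun x => exists_smul_eq G o x
  have key : ∀ (g : G), α (s (g • o)) • ω = α g • ω := by
    intro g
    have := h (g⁻¹ * s (g • o)) (by rw [mul_smul, hs, inv_smul_smul])
    rwa [map_mul, mul_smul, map_inv, inv_smul_eq_iff] at this
  have hsurj : Function.Surjective fun x => α (s x) • ω := by
    intro y
    obtain ⟨g, rfl⟩ := exists_smul_eq G ω y
    exact ⟨α⁻¹ g • o, by simp only [key, MulAut.apply_inv_self]⟩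
  refine ⟨Equiv.ofBijective _ (Finite.surjective_iff_bijective.1 hsurj), fun g x => ?_⟩
  obtain ⟨u, rfl⟩ := exists_smul_eq G o x
  simp only [Equiv.ofBijective_apply, ← mul_smul, key, map_mul]

theorem oddAut_induced [Fintype Ω] (h2 : IsMultiplyPretransitive G Ω 2) (o : Ω) (α : MulAut G)
    (hα : Odd (orderOf α)) (ω : Ω)
    (hk : (Nat.card (orbit ((stabilizer G o).map α.toMonoidHom) ω)).Coprime (Fintype.card Ω)) :
    ∃ σ : Equiv.Perm Ω, ∀ (g : G) (x : Ω), σ (g • x) = α g • σ x := by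
  have := isPretransitive_of_is_two_pretransitive (G := G) (α := Ω)
  set O := orbit ((stabilizer G o).map α.toMonoidHom) ω with hO
  have hO' : ∀ g : G, g • o = o → ∀ x, α g • x ∈ O ↔ x ∈ O := by
    intro g hg x
    let g' : (stabilizer G o).map α.toMonoidHom := ⟨α g, g, hg, rfl⟩
    have : α g • x = g' • x := rfl
    rw [this, hO, ← orbit_eq_iff, orbit_smul, orbit_eq_iff]
  rcases oddAut_orbit h2 o α hα ω hk with h | h
  · apply exists_perm_of_fixed (o := o) (ω := ω)
    intro g hg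
    have := (Nat.card_eq_one_iff_unique.1 h).1
    exact congrArg Subtype.val (Subsingleton.elim
      (⟨α g • ω, (hO' g hg ω).2 (mem_orbit_self ω)⟩ : O) ⟨ω, mem_orbit_self ω⟩)
  · have h1 : Oᶜ.ncard = 1 := by
      have := Set.ncard_add_ncard_compl O
      rw [Nat.card_eq_fintype_card] at this
      have h3 : 0 < Fintype.card Ω := Fintype.card_pos_iff.2 ⟨o⟩
      rw [Nat.card_coe_set_eq, ← hO] at h
      omega
    obtain ⟨ω', hω'⟩ := Set.ncard_eq_one.1 h1
    apply exists_perm_of_fixed (o := o) (ω := ω')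
    intro g hg
    have h3 : ω' ∈ Oᶜ := hω' ▸ Set.mem_singleton _
    have : α g • ω' ∈ Oᶜ := fun h => h3 ((hO' g hg ω').1 h)
    rwa [hω'] at this

theorem oddAut_induced_of_hall [Fintype Ω] [Finite G] (h2 : IsMultiplyPretransitive G Ω 2) (o : Ω)
    (hH : (Nat.card (stabilizer G o)).Coprime (stabilizer G o).index) (α : MulAut G)
    (hα : Odd (orderOf α)) :
    ∃ σ : Equiv.Perm Ω, ∀ (g : G) (x : Ω), σ (g • x) = α g • σ x := by
  have := isPretransitive_of_is_two_pretransitive (G := G) (α := Ω)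
  apply oddAut_induced h2 o α hα o
  rw [index_stabilizer_of_transitive, Nat.card_eq_fintype_card (α := Ω)] at hH
  refine Nat.Coprime.coprime_dvd_left ?_ hH
  rw [Nat.card_coe_set_eq, ← index_stabilizer]
  exact (Subgroup.index_dvd_card _).trans (Subgroup.card_map_dvd _ _)

theorem normalizes_of_induced (G : Subgroup (Equiv.Perm Ω)) (α : MulAut G) (σ : Equiv.Perm Ω)
    (h : ∀ (g : G) (x : Ω), σ (g • x) = α g • σ x) :
    σ ∈ Subgroup.normalizer (G : Set (Equiv.Perm Ω)) ∧
      ∀ g : G, ((α g : G) : Equiv.Perm Ω) = σ * (g : Equiv.Perm Ω) * σ⁻¹ := by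
  have h1 : ∀ g : G, ((α g : G) : Equiv.Perm Ω) = σ * (g : Equiv.Perm Ω) * σ⁻¹ := by
    intro g
    ext x
    have := h g (σ⁻¹ x)
    rw [Equiv.Perm.coe_inv, Equiv.apply_symm_apply] at this
    exact this.symm
  refine ⟨Subgroup.mem_normalizer_iff.2 fun g => ⟨fun hg => ?_, fun hg => ?_⟩, h1⟩
  · exact h1 ⟨g, hg⟩ ▸ (α ⟨g, hg⟩).2
  · have := h1 (α⁻¹ ⟨_, hg⟩)
    rw [MulAut.apply_inv_self] at this
    have h3 : g = (α⁻¹ ⟨_, hg⟩ : G) := by simpa using this
    rw [h3]
    exact Subtype.prop _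

end CfsgLib.SolvStruct
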