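import Mathlib
import Cfsg.Prelude.Def_SolvableStructure
import Cfsg.Agent.Lib.SolvStruct.MinNonNilp
import Cfsg.Agent.Lib.SolvStruct.Primitive
import Cfsg.Agent.Lib.SolvStruct.Factor
import Cfsg.Agent.Lib.Coprime.HallAmbient

/-!
Hall complement systems and system normalizers of finite solvable groups.
-/

set_option autoImplicit false

open Cfsg Subgroup
open scoped Pointwise commutatorElement

namespace CfsgLib.SolvStruct

universe u

variable {G : Type u} [Group G]

theorem isFactor_of_coprime_index [Finite G] {H K : Subgroup G} (h : H.index.Coprime K.index) :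
    IsFactor H K := by
  apply isFactor_of_card_le
  have h1 := (H ⊓ K).card_mul_index
  rw [Core.index_inf_of_coprime_index h] at h1
  have h2 := H.card_mul_index
  have h3 := K.card_mul_index
  have h4 : 0 < H.index * K.index :=
    Nat.pos_of_ne_zero (mul_ne_zero FiniteIndex.index_ne_zero FiniteIndex.index_ne_zero)
  refine le_of_eq (Nat.eq_of_mul_eq_mul_right h4 ?_)
  calc Nat.card G * Nat.card ↥(H ⊓ K) * (H.index * K.index) = Nat.card G * Nat.card G := by
        rw [mul_assoc, h1]
    _ = Nat.card H * Nat.card K * (H.index * K.index) := by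
        nth_rewrite 1 [← h2]; rw [← h3]; ring

/-- Chinese remainder theorem for subgroups of pairwise coprime index. -/
theorem exists_mem_cosets_of_coprime_index [Finite G] {ι : Type*} (s : Finset ι)
    (H : ι → Subgroup G) (h : ∀ i ∈ s, ∀ j ∈ s, i ≠ j → (H i).index.Coprime (H j).index)
    (x : ι → G) : ∃ g : G, ∀ i ∈ s, (x i)⁻¹ * g ∈ H i := by
  classical
  suffices hs : ∃ L : Subgroup G, (∀ i ∈ s, L ≤ H i) ∧ L.index = ∏ i ∈ s, (H i).index ∧
      ∃ g : G, ∀ i ∈ s, (x i)⁻¹ * g ∈ H i by
    obtain ⟨L, -, -, h⟩ := hs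
    exact h
  induction s using Finset.induction_on with
  | empty => exact ⟨⊤, by simp, by simp, 1, by simp⟩
  | insert j s hj ih =>
    obtain ⟨L, hL, hi, g, hg⟩ := ih fun a ha b hb =>
      h a (Finset.mem_insert_of_mem ha) b (Finset.mem_insert_of_mem hb)
    have hc : L.index.Coprime (H j).index := by
      rw [hi]
      exact Nat.Coprime.prod_left fun i his => h i (Finset.mem_insert_of_mem his) j
        (Finset.mem_insert_self _ _) (fun e => hj (e ▸ his))
    obtain ⟨l, hl, k, hk, e⟩ := isFactor_of_coprime_index hc (g⁻¹ * x j)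
    refine ⟨L ⊓ H j, ?_, ?_, g * l, ?_⟩
    · intro i hi'
      rcases Finset.mem_insert.mp hi' with rfl | hi'
      · exact inf_le_right
      · exact inf_le_left.trans (hL i hi')
    · rw [Core.index_inf_of_coprime_index hc, Finset.prod_insert hj, hi, mul_comm]
    · intro i hi'
      rcases Finset.mem_insert.mp hi' with rfl | hi'
      · have : (x i)⁻¹ * (g * l) = k⁻¹ := by
          rw [eq_mul_inv_of_mul_eq e.symm]; group
        rw [this]; exact inv_mem hk
      · rw [← mul_assoc]; exact mul_mem (hg i hi') (hL i hi' hl)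

theorem exists_mem_cosets_primes [Finite G] (H : Nat.Primes → Subgroup G)
    (h : ∀ p : Nat.Primes, ∃ k, (H p).index ∣ (p : ℕ) ^ k) (x : Nat.Primes → G) :
    ∃ g : G, ∀ p, (x p)⁻¹ * g ∈ H p := by
  have hfin : {p : Nat.Primes | (p : ℕ) ∣ Nat.card G}.Finite := by
    refine Set.Finite.of_finite_image (f := fun p : Nat.Primes => (p : ℕ)) ?_
      Subtype.val_injective.injOn
    refine (Set.finite_le_nat (Nat.card G)).subset ?_
    rintro _ ⟨p, hp, rfl⟩
    exact Nat.le_of_dvd Nat.card_pos hp
  obtain ⟨g, hg⟩ := exists_mem_cosets_of_coprime_index hfin.toFinset H (fun i _ j _ hij => by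
    obtain ⟨a, ha⟩ := h i
    obtain ⟨b, hb⟩ := h j
    exact ((Nat.coprime_pow_primes a b i.2 j.2 fun e => hij (Subtype.ext e)).coprime_dvd_left
      ha).coprime_dvd_right hb) x
  refine ⟨g, fun p => ?_⟩
  by_cases hp : (p : ℕ) ∣ Nat.card G
  · exact hg p (hfin.mem_toFinset.mpr hp)
  · obtain ⟨k, hk⟩ := h p
    have : H p = ⊤ := index_eq_one.mp (Nat.eq_one_of_dvd_coprimes
      (((Nat.Prime.coprime_iff_not_dvd p.2).mpr hp).pow_left k) hk (index_dvd_card _))
    rw [this]; exact mem_top _

theorem isPiHall_compl_singleton_iff [Finite G] {p : ℕ} (hp : p.Prime) {H : Subgroup G} :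
    IsPiHall {p}ᶜ H ↔ H.index = p ^ (Nat.card G).factorization p := by
  have h0 : Nat.card H ≠ 0 := Nat.card_pos.ne'
  have h1 : H.index ≠ 0 := FiniteIndex.index_ne_zero
  have hm : (Nat.card G).factorization p =
      (Nat.card H).factorization p + H.index.factorization p := by
    rw [← H.card_mul_index, Nat.factorization_mul h0 h1]; rfl
  constructor
  · intro h
    have h2 : ¬ p ∣ Nat.card H := fun hd => h.1 p hp hd rfl
    rw [hm, Nat.factorization_eq_zero_of_not_dvd h2, zero_add]
    obtain ⟨k, hk⟩ : ∃ k, H.index = p ^ k :=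
      ⟨_, Nat.eq_prime_pow_of_unique_prime_dvd h1 fun {q} hq hd => by
        by_contra hne; exact h.2 q hq hne hd⟩
    rw [hk, hp.factorization_pow, Finsupp.single_eq_same]
  · intro h
    refine ⟨fun q hq hd hqp => ?_, fun q hq hqp hd => ?_⟩
    · rw [Set.mem_singleton_iff] at hqp
      subst hqp
      have h2 := hq.factorization_pos_of_dvd h0 hd
      have h3 : H.index.factorization q = (Nat.card G).factorization q := by
        rw [h, hq.factorization_pow, Finsupp.single_eq_same]
      omega
    · rw [h] at hd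
      exact hqp ((Nat.prime_dvd_prime_iff_eq hq hp).mp (hq.dvd_of_dvd_pow hd))

theorem isComplementSystem_iff [Finite G] {K : Nat.Primes → Subgroup G} :
    IsComplementSystem K ↔ ∀ p : Nat.Primes, IsPiHall {(p : ℕ)}ᶜ (K p) :=
  forall_congr' fun p => (isPiHall_compl_singleton_iff p.2).symm

theorem exists_isComplementSystem (G : Type u) [Group G] [Finite G] [Group.IsSolvable G] :
    ∃ K : Nat.Primes → Subgroup G, IsComplementSystem K := by
  choose K hK using fun p : Nat.Primes => Coprime.exists_isPiHall {(p : ℕ)}ᶜ G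
  exact ⟨K, isComplementSystem_iff.mpr hK⟩

theorem mem_systemNormalizer {K : Nat.Primes → Subgroup G} {g : G} :
    g ∈ systemNormalizer K ↔ ∀ p, MulAut.conj g • K p = K p := by
  simp only [systemNormalizer, mem_iInf, mem_normalizer_iff_conj_smul_eq]

theorem systemNormalizer_le (K : Nat.Primes → Subgroup G) (p : Nat.Primes) :
    systemNormalizer K ≤ normalizer (K p : Set G) := iInf_le _ p

theorem conj_smul_eq_of_inv_mul_mem {H : Subgroup G} {x g : G}
    (h : x⁻¹ * g ∈ normalizer (H : Set G)) : MulAut.conj g • H = MulAut.conj x • H := by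
  conv_rhs => rw [← mem_normalizer_iff_conj_smul_eq.mp h]
  rw [conj_smul_smul, mul_inv_cancel_left]

/-- Complement systems are conjugate. -/
theorem complementSystem_conj [Finite G] [Group.IsSolvable G] {K L : Nat.Primes → Subgroup G}
    (hK : IsComplementSystem K) (hL : IsComplementSystem L) :
    ∃ g : G, ∀ p, MulAut.conj g • K p = L p := by
  choose x hx using fun p : Nat.Primes => Coprime.exists_conj_eq_of_isPiHall
    (isComplementSystem_iff.mp hK p) (isComplementSystem_iff.mp hL p)
  obtain ⟨g, hg⟩ := exists_mem_cosets_primes (fun p => normalizer (K p : Set G))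
    (fun p => ⟨_, (index_dvd_of_le le_normalizer).trans (hK p).dvd⟩) x
  exact ⟨g, fun p => (conj_smul_eq_of_inv_mul_mem (hg p)).trans (hx p)⟩

theorem isComplementSystem_conj [Finite G] {K : Nat.Primes → Subgroup G}
    (hK : IsComplementSystem K) (g : G) : IsComplementSystem fun p => MulAut.conj g • K p :=
  fun p => by rw [index_conj_smul]; exact hK p

theorem systemNormalizer_conj (K : Nat.Primes → Subgroup G) (g : G) :
    systemNormalizer (fun p => MulAut.conj g • K p) = MulAut.conj g • systemNormalizer K := by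
  ext x
  rw [mem_conj_smul_iff]
  simp only [systemNormalizer, mem_iInf, normalizer_conj_smul, mem_conj_smul_iff]

theorem relIndex_dvd_index_of_le_normalizer {H D : Subgroup G}
    (h : D ≤ normalizer (H : Set G)) : H.relIndex D ∣ H.index := by
  rw [← relIndex_subgroupOf h]
  exact (relIndex_dvd_index_of_normal _ _).trans (Dvd.intro _ (relIndex_mul_index le_normalizer))

theorem relIndex_normal_dvd_index [Finite G] (H N : Subgroup G) [N.Normal] :
    H.relIndex N ∣ H.index := by
  have h1 := Core.card_sup_mul_card_inf_of_normal H N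
  rw [← card_mul_relIndex (le_sup_left : H ≤ H ⊔ N), ← card_mul_relIndex (inf_le_right : H ⊓ N ≤ N),
    inf_relIndex_right, mul_assoc, mul_comm (H.relIndex _)] at h1
  rw [← Nat.eq_of_mul_eq_mul_left Nat.card_pos (Nat.eq_of_mul_eq_mul_left Nat.card_pos h1)]
  exact Dvd.intro _ (relIndex_mul_index le_sup_left)

/-- System normalizers are nilpotent. -/
theorem systemNormalizer_nilpotent [Finite G] {K : Nat.Primes → Subgroup G}
    (hK : IsComplementSystem K) : Group.IsNilpotent (systemNormalizer K) := by
  refine nilpotent_of_forall_hasNormalPComplement fun p hp => ?_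
  have := Fact.mk hp
  have hn := systemNormalizer_le K ⟨p, hp⟩
  have : ((K ⟨p, hp⟩).subgroupOf (systemNormalizer K)).Normal :=
    (normal_subgroupOf_iff_le_normalizer_inf).mpr (le_normalizer_inf hn le_normalizer)
  refine Transfer.hasNormalPComplement_of_normal ((K ⟨p, hp⟩).subgroupOf (systemNormalizer K))
    ?_ ?_
  · have h1 := (Coprime.IsPiNum.compl_singleton_iff hp).mp
      (Coprime.isPiHall_iff.mp (isComplementSystem_iff.mp hK ⟨p, hp⟩)).1
    refine h1.coprime_dvd_left ?_
    exact card_comap_dvd_of_injective _ _ (subtype_injective _)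
  · have h1 := (relIndex_dvd_index_of_le_normalizer hn).trans (hK ⟨p, hp⟩).dvd
    obtain ⟨k, -, hk⟩ := (Nat.dvd_prime_pow hp).mp h1
    exact IsPGroup.of_card hk

theorem isComplementSystem_map [Finite G] {Q : Type*} [Group Q] {f : G →* Q}
    (hf : Function.Surjective f) {K : Nat.Primes → Subgroup G} (hK : IsComplementSystem K) :
    IsComplementSystem fun p => (K p).map f := by
  have := Finite.of_surjective f hf
  exact isComplementSystem_iff.mpr fun p =>
    Coprime.isPiHall_map_of_surjective hf (isComplementSystem_iff.mp hK p)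

theorem systemNormalizer_map_mk' [Finite G] [Group.IsSolvable G] {K : Nat.Primes → Subgroup G}
    (hK : IsComplementSystem K) (N : Subgroup G) [hN : N.Normal] :
    systemNormalizer (fun p => (K p).map (QuotientGroup.mk' N)) =
      (systemNormalizer K).map (QuotientGroup.mk' N) := by
  refine le_antisymm (fun x hx => ?_) ?_
  · obtain ⟨g, rfl⟩ := QuotientGroup.mk'_surjective N x
    have key : ∀ p, ∃ n : N, MulAut.conj (n : G) • K p = MulAut.conj g • K p := fun p => by
      have h1 : (MulAut.conj g • K p) ⊔ N = K p ⊔ N := by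
        have := mem_systemNormalizer.mp hx p
        rw [← map_conj_smul] at this
        rw [← comap_map_mk', this, comap_map_mk']
      have hH := isComplementSystem_iff.mp hK p
      have h2 : IsPiHallOf {(p : ℕ)}ᶜ (K p) (K p ⊔ N) :=
        Coprime.isPiHallOf_of_le (Coprime.isPiHallOf_top.mpr hH) le_sup_left le_top
      have h3 : IsPiHallOf {(p : ℕ)}ᶜ (MulAut.conj g • K p) (K p ⊔ N) :=
        Coprime.isPiHallOf_of_le (Coprime.isPiHallOf_top.mpr (Coprime.isPiHall_conj_smul hH g))
          (h1 ▸ le_sup_left) le_top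
      obtain ⟨m, hm, e⟩ := Coprime.exists_conj_eq_of_isPiHallOf inferInstance h2 h3
      rw [sup_comm, ← SetLike.mem_coe, normal_mul] at hm
      obtain ⟨n, hn, k, hk, rfl⟩ := hm
      refine ⟨⟨n, hn⟩, ?_⟩
      rw [← e, ← conj_smul_smul, conj_smul_eq_of_mem_normalizer (le_normalizer hk)]
    choose n hn using key
    obtain ⟨m, hm⟩ := exists_mem_cosets_primes
      (fun p => (normalizer (K p : Set G)).subgroupOf N) (fun p => ⟨_,
        (index_dvd_of_le (comap_mono le_normalizer)).trans
          ((relIndex_normal_dvd_index _ _).trans (hK p).dvd)⟩) n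
    refine ⟨(m : G)⁻¹ * g, mem_systemNormalizer.mpr fun p => ?_, ?_⟩
    · have h1 : ((n p : G))⁻¹ * m ∈ normalizer (K p : Set G) := hm p
      rw [← conj_smul_smul, ← hn p, ← conj_smul_eq_of_inv_mul_mem h1, conj_smul_smul,
        inv_mul_cancel, map_one, one_smul]
    · rw [map_mul, map_inv, QuotientGroup.mk'_apply, (QuotientGroup.eq_one_iff _).mpr m.2,
        inv_one, one_mul]
  · rintro _ ⟨g, hg, rfl⟩
    refine mem_systemNormalizer.mpr fun p => ?_
    rw [← map_conj_smul, mem_systemNormalizer.mp hg p]

theorem systemNormalizer_eq_top_of_comm [IsMulCommutative G] (K : Nat.Primes → Subgroup G) :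
    systemNormalizer K = ⊤ := by
  rw [eq_top_iff]
  exact le_iInf fun p => le_normalizer_of_normal

theorem center_le_systemNormalizer (K : Nat.Primes → Subgroup G) :
    center G ≤ systemNormalizer K := le_iInf fun _ => center_le_normalizer _

theorem eq_top_of_normal_of_systemNormalizer_le [Finite G] [Group.IsSolvable G]
    {K : Nat.Primes → Subgroup G} (hK : IsComplementSystem K) {N : Subgroup G} [N.Normal]
    (h : systemNormalizer K ≤ N) : N = ⊤ := by
  have h1 : N ⊔ _root_.commutator G = ⊤ := by
    have : IsMulCommutative (G ⧸ (N ⊔ _root_.commutator G)) :=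
      Normal.quotient_commutative_iff_commutator_le.2 le_sup_right
    have h2 := systemNormalizer_map_mk' hK (N ⊔ _root_.commutator G)
    rw [systemNormalizer_eq_top_of_comm] at h2
    have h3 := congrArg (comap (QuotientGroup.mk' (N ⊔ _root_.commutator G))) h2
    rw [comap_top, comap_map_mk', sup_eq_right.mpr (h.trans le_sup_left)] at h3
    exact h3.symm
  by_contra hne
  have : Nontrivial (G ⧸ N) := QuotientGroup.nontrivial_iff.mpr hne
  have h2 := congrArg (map (QuotientGroup.mk' N)) h1
  rw [Subgroup.map_sup, (map_mk'_eq_bot_iff N N).mpr le_rfl, bot_sup_eq, map_commutator_mk',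
    map_top_of_surjective _ (QuotientGroup.mk'_surjective N)] at h2
  exact Group.IsSolvable.commutator_lt_top_of_nontrivial (G ⧸ N) |>.ne h2

theorem inf_systemNormalizer_eq_bot [Finite G] [Group.IsSolvable G]
    {K : Nat.Primes → Subgroup G} (hK : IsComplementSystem K) {B : Subgroup G} [B.Normal]
    (hmin : ∀ N : Subgroup G, N.Normal → N ≤ B → N = ⊥ ∨ N = B) (hnc : ¬ B ≤ center G) :
    B ⊓ systemNormalizer K = ⊥ := by
  have hB : B ≠ ⊥ := fun h => hnc (h ▸ bot_le)
  obtain ⟨p, hp, hBp, hBc, -⟩ := minimal_normal_exists_pgroup_of_solvable hB hmin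
  have := Fact.mk hp
  set C := centralizer (B : Set G) with hC
  have hCt : C ≠ ⊤ := fun h => hnc (by
    rw [← centralizer_univ, ← coe_top, le_centralizer_iff]; exact h.ge)
  have : Nontrivial (G ⧸ C) := QuotientGroup.nontrivial_iff.mpr hCt
  obtain ⟨q, L', hq, hL'n, hL'1, hL'q, -, -⟩ := exists_normal_pgroup_of_solvable (G := G ⧸ C)
  have := Fact.mk hq
  set L := L'.comap (QuotientGroup.mk' C) with hL
  have hLC : ¬ L ≤ C := fun h => hL'1 (by
    rw [← map_comap_mk' C L', (map_mk'_eq_bot_iff C _).mpr h])
  have hCL : B ⊓ centralizer (L : Set G) = ⊥ := by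
    rcases hmin (B ⊓ centralizer (L : Set G)) inferInstance inf_le_left with h | h
    · exact h
    · exact absurd (le_centralizer_iff.mp (inf_eq_left.mp h)) hLC
  have hqp : q ≠ p := by
    rintro rfl
    obtain ⟨S⟩ : Nonempty (Sylow q L) := inferInstance
    have h1 : ((S : Subgroup L).map L.subtype) ⊔ C = L := by
      refine le_antisymm (sup_le (map_subtype_le _) (le_comap_mk' C L')) ?_
      have h2 : IsPGroup q (L ⧸ C.subgroupOf L) := by
        have h3 := card_comap_mk' C L'
        obtain ⟨k, hk⟩ := hL'q.exists_card_eq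
        refine IsPGroup.of_card (n := k) ?_
        rw [← hL, ← card_mul_relIndex (le_comap_mk' C L'), hk] at h3
        exact Nat.eq_of_mul_eq_mul_left Nat.card_pos h3
      have h4 := congrArg (map L.subtype)
        (Core.sylow_sup_eq_top_of_isPGroup_quotient S (C.subgroupOf L) h2)
      rw [Subgroup.map_sup, subgroupOf_map_subtype, ← MonoidHom.range_eq_map, range_subtype,
        inf_of_le_left (le_comap_mk' C L')] at h4
      exact h4.ge
    refine Core.inf_centralizer_ne_bot_of_isPGroup hBp (S.isPGroup'.map L.subtype)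
      le_normalizer_of_normal hB ?_
    rw [eq_bot_iff, ← hCL]
    refine le_inf inf_le_left ?_
    rw [le_centralizer_iff]
    exact h1.ge.trans (sup_le (le_centralizer_iff.mp inf_le_right) (centralizer_le (by
      exact SetLike.coe_subset_coe.mpr inf_le_left)))
  have hH := isComplementSystem_iff.mp hK ⟨p, hp⟩
  have hLK : L ≤ K ⟨p, hp⟩ ⊔ C := by
    rw [← comap_map_mk']
    exact comap_mono (Coprime.le_of_isPiHall_of_normal
      (Coprime.isPiHall_map_of_surjective (QuotientGroup.mk'_surjective C) hH)
      (Coprime.isPiNum_card_of_isPGroup hq hL'q hqp))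
  rw [eq_bot_iff, ← hCL]
  refine le_inf inf_le_left ?_
  rw [le_centralizer_iff]
  refine hLK.trans (sup_le ?_ (centralizer_le (by exact SetLike.coe_subset_coe.mpr inf_le_left)))
  rw [le_centralizer_iff, ← commutator_eq_bot_iff_le_centralizer, eq_bot_iff]
  have h1 : B ⊓ K ⟨p, hp⟩ = ⊥ := by
    refine (disjoint_of_coprime_natCard ?_).eq_bot
    obtain ⟨k, hk⟩ := hBp.exists_card_eq
    rw [hk]
    exact ((Coprime.IsPiNum.compl_singleton_iff hp).mp
      (Coprime.isPiHall_iff.mp hH).1).symm.pow_left k
  rw [← h1]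
  refine le_inf ((commutator_mono inf_le_left le_top).trans (commutator_le_left _ _)) ?_
  exact le_normalizer_iff_commutator_le_right.1 (inf_le_right.trans (systemNormalizer_le K _))

theorem systemNormalizer_cover_avoid [Finite G] [Group.IsSolvable G]
    {K : Nat.Primes → Subgroup G} (hK : IsComplementSystem K) (A B : Subgroup G) [A.Normal]
    [B.Normal] (hAB : A ≤ B)
    (hchief : ∀ N : Subgroup G, N.Normal → A ≤ N → N ≤ B → N = A ∨ N = B) :
    (⁅B, (⊤ : Subgroup G)⁆ ≤ A → B ≤ A ⊔ systemNormalizer K) ∧
      (¬ ⁅B, (⊤ : Subgroup G)⁆ ≤ A → B ⊓ systemNormalizer K ≤ A) := by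
  have hs := QuotientGroup.mk'_surjective A
  have hiff : B.map (QuotientGroup.mk' A) ≤ center (G ⧸ A) ↔ ⁅B, (⊤ : Subgroup G)⁆ ≤ A := by
    rw [← centralizer_univ, ← coe_top, ← commutator_eq_bot_iff_le_centralizer,
      ← map_top_of_surjective _ hs, ← map_commutator, map_mk'_eq_bot_iff]
  constructor
  · intro h
    have h1 := (hiff.mpr h).trans
      (center_le_systemNormalizer fun p => (K p).map (QuotientGroup.mk' A))
    rw [systemNormalizer_map_mk' hK, map_le_iff_le_comap, comap_map_mk', sup_comm] at h1
    exact h1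
  · intro h
    have := (inferInstance : B.Normal).map _ hs
    have h1 := inf_systemNormalizer_eq_bot (isComplementSystem_map hs hK)
      (B := B.map (QuotientGroup.mk' A)) (fun N hN hNB => by
        rcases hchief (N.comap (QuotientGroup.mk' A)) inferInstance (le_comap_mk' A N)
          (by rw [← comap_map_mk'_of_le A hAB]; exact comap_mono hNB) with e | e
        · left; rw [← map_comap_mk' A N, e, map_mk'_eq_bot_iff]
        · right; rw [← map_comap_mk' A N, e]) (fun h' => h (hiff.mp h'))
    rw [systemNormalizer_map_mk' hK] at h1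
    rw [← map_mk'_eq_bot_iff A, eq_bot_iff, ← h1]
    exact map_inf_le _ _ _

end CfsgLib.SolvStruct
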