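import Mathlib
import Cfsg.Agent.Lib.SolvStruct.SysNorm
import Cfsg.Agent.Lib.Coprime.Carter

/-!
Carter subgroups and system normalizers.
-/

set_option autoImplicit false

open Cfsg Subgroup
open scoped Pointwise commutatorElement

namespace CfsgLib.SolvStruct

universe u

variable {G : Type u} [Group G]

theorem normalCore_map_mk'_normalCore (M : Subgroup G) :
    (M.map (QuotientGroup.mk' M.normalCore)).normalCore = ⊥ := by
  rw [← map_comap_mk' M.normalCore (M.map (QuotientGroup.mk' M.normalCore)).normalCore,
    map_mk'_eq_bot_iff, normal_le_normalCore]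
  exact (comap_mono (normalCore_le _)).trans (comap_map_mk'_of_le _ (normalCore_le M)).le

/-- A non-normal maximal subgroup `M` of a finite solvable group has prime power index `p ^ k` and
contains the normalizer of a Hall `p'`-subgroup. -/
theorem exists_hall_normalizer_le [Finite G] [Group.IsSolvable G] {M : Subgroup G}
    (hM : IsCoatom M) (hn : ¬ M.Normal) : ∃ p : ℕ, p.Prime ∧ (∃ k, M.index = p ^ k) ∧
      ∃ H : Subgroup G, IsPiHall {p}ᶜ H ∧ normalizer (H : Set G) ≤ M := by
  have hs := QuotientGroup.mk'_surjective M.normalCore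
  have hM' := isCoatom_map_mk' M.normalCore hM (normalCore_le M)
  have h1 : M.map (QuotientGroup.mk' M.normalCore) ≠ ⊥ := fun h => hn (by
    rw [map_mk'_eq_bot_iff] at h
    rw [le_antisymm h (normalCore_le M)]; infer_instance)
  obtain ⟨p, q, N, L, hp, hq, hpq, hN, hL, -, hNp, -, -, hV⟩ :=
    corefree_solvable_exists_layer hM' (normalCore_map_mk'_normalCore M) h1
  obtain ⟨hc, hnorm, hq', -⟩ := hV _ hM' (normalCore_map_mk'_normalCore M)
  have := Fact.mk hp
  obtain ⟨k, hk⟩ := hNp.exists_card_eq
  have hi : M.index = p ^ k := by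
    rw [← index_map_mk' M.normalCore (normalCore_le M), hc.index_eq_card, hk]
  obtain ⟨H, hH⟩ := Coprime.exists_isPiHallOf (M := M) {p}ᶜ inferInstance
  have hH' : IsPiHall {p}ᶜ H := Coprime.isPiHallOf_top.mp (Coprime.isPiHallOf_trans hH le_top (by
    rw [relIndex_top_right, hi, compl_compl]
    exact Coprime.IsPiNum.of_prime_pow hp rfl))
  refine ⟨p, hp, ⟨k, hi⟩, H, hH', ?_⟩
  have h2 := Coprime.isPiHallOf_inf_of_normal (Coprime.isPiHall_map_of_surjective hs hH') L
  have h3 := Coprime.eq_of_isPiHallOf_le h2 (U := L ⊓ M.map (QuotientGroup.mk' M.normalCore))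
    (le_inf inf_le_right (inf_le_left.trans (map_mono hH.1))) inf_le_left
    (Coprime.isPiNum_card_of_isPGroup hq hq' hpq.symm)
  rw [← comap_map_mk'_of_le _ (normalCore_le M), ← map_le_iff_le_comap, ← hnorm, h3]
  exact le_normalizer_inf (le_normalizer_map _) le_normalizer_of_normal

theorem exists_systemNormalizer_le_of_isCarter (G : Type u) [Group G] [Finite G]
    (hG : Group.IsSolvable G) (C : Subgroup G) (hC : IsCarterSubgroup C) :
    ∃ K : Nat.Primes → Subgroup G, IsComplementSystem K ∧ systemNormalizer K ≤ C := by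
  revert hG C
  refine card_induction (P := fun G _ _ => Group.IsSolvable G → ∀ C : Subgroup G,
    IsCarterSubgroup C →
      ∃ K : Nat.Primes → Subgroup G, IsComplementSystem K ∧ systemNormalizer K ≤ C) ?_ G
  intro G _ _ ih hG C hC
  obtain ⟨K₀, hK₀⟩ := exists_isComplementSystem G
  by_cases hCt : C = ⊤
  · exact ⟨K₀, hK₀, hCt ▸ le_top⟩
  obtain ⟨M, hM, hCM⟩ := Core.exists_isCoatom_ge hCt
  have hMn := Coprime.normalizer_eq_of_isCarterSubgroup_le inferInstance hCM hC
  obtain ⟨p, hp, ⟨k, hk⟩, H, hH, hHM⟩ := exists_hall_normalizer_le hM fun h =>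
    hM.1 (by rw [← hMn]; exact normalizer_eq_top M)
  classical
  set K := Function.update K₀ ⟨p, hp⟩ H with hKdef
  have hKp : K ⟨p, hp⟩ = H := Function.update_self _ _ _
  have hK : IsComplementSystem K := isComplementSystem_iff.mpr fun q => by
    by_cases h : q = ⟨p, hp⟩
    · subst h; rw [hKp]; exact hH
    · rw [hKdef, Function.update_of_ne h]; exact isComplementSystem_iff.mp hK₀ q
  have hKM : IsComplementSystem fun q => (K q).subgroupOf M := by
    refine isComplementSystem_iff.mpr fun q => Coprime.isPiHall_iff.mpr ⟨?_, ?_⟩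
    · exact (Coprime.isPiHall_iff.mp (isComplementSystem_iff.mp hK q)).1.of_dvd
        (card_comap_dvd_of_injective _ _ (subtype_injective _))
    · refine (Coprime.isPiHall_iff.mp (isComplementSystem_iff.mp hK q)).2.of_dvd ?_
      by_cases h : q = ⟨p, hp⟩
      · subst h
        rw [hKp]
        exact Dvd.intro _ (relIndex_mul_index (le_normalizer.trans hHM))
      · have h1 : (K q).index.Coprime M.index := by
          rw [hK q, hk]
          exact Nat.coprime_pow_primes _ _ q.2 hp fun e => h (Subtype.ext e)
        have h2 := Core.index_inf_of_coprime_index h1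
        rw [← relIndex_mul_index (inf_le_right : K q ⊓ M ≤ M), inf_relIndex_right] at h2
        exact (Nat.eq_of_mul_eq_mul_right
          (Nat.pos_of_ne_zero FiniteIndex.index_ne_zero) h2).dvd
  obtain ⟨L, hL, hLC⟩ := ih M (card_subgroup_lt M hM.1) inferInstance _
    (Coprime.isCarter_subgroupOf hC hCM)
  obtain ⟨m, hm⟩ := complementSystem_conj hKM hL
  refine ⟨_, isComplementSystem_conj hK (m : G), ?_⟩
  rw [systemNormalizer_conj]
  intro x hx
  rw [mem_conj_smul_iff] at hx
  have hxM : (m : G)⁻¹ * x * m ∈ M := hHM (hKp ▸ systemNormalizer_le K _ hx)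
  have hxM' : x ∈ M := by
    have := M.mul_mem (M.mul_mem m.2 hxM) (M.inv_mem m.2)
    simpa [mul_assoc] using this
  have h1 : (⟨x, hxM'⟩ : M) ∈ systemNormalizer L := by
    rw [show L = fun q => MulAut.conj m • (K q).subgroupOf M from funext fun q => (hm q).symm,
      systemNormalizer_conj, mem_conj_smul_iff]
    refine mem_iInf.mpr fun q => ?_
    exact le_normalizer_comap M.subtype (systemNormalizer_le K q hx)
  exact hLC h1

theorem exists_isCarter_ge_systemNormalizer [Finite G] [hG : Group.IsSolvable G]
    {K : Nat.Primes → Subgroup G} (hK : IsComplementSystem K) :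
    ∃ C : Subgroup G, IsCarterSubgroup C ∧ systemNormalizer K ≤ C := by
  obtain ⟨C, hC⟩ := Coprime.exists_isCarterSubgroup G
  obtain ⟨L, hL, h⟩ := exists_systemNormalizer_le_of_isCarter G hG C hC
  obtain ⟨g, hg⟩ := complementSystem_conj hL hK
  refine ⟨_, Coprime.isCarter_conj_smul hC g, ?_⟩
  rw [show K = fun q => MulAut.conj g • L q from funext fun q => (hg q).symm,
    systemNormalizer_conj]
  exact conj_smul_mono g h

theorem isCarter_iff_eq_systemNormalizer [Finite G] (F : Subgroup G) [F.Normal]
    (hF : Group.IsNilpotent F) (hGF : Group.IsNilpotent (G ⧸ F)) (C : Subgroup G) :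
    IsCarterSubgroup C ↔
      ∃ K : Nat.Primes → Subgroup G, IsComplementSystem K ∧ C = systemNormalizer K := by
  have hG : Group.IsSolvable G :=
    Group.isSolvable_of_ker_le_range F.subtype (QuotientGroup.mk' F)
      (by rw [QuotientGroup.ker_mk', range_subtype])
  have key : ∀ C : Subgroup G, IsCarterSubgroup C →
      ∃ K : Nat.Primes → Subgroup G, IsComplementSystem K ∧ C = systemNormalizer K := by
    intro C hC
    have hCF : C ⊔ F = ⊤ := by
      have h1 := Coprime.isCarter_map_mk' F hC
      have h2 : C.map (QuotientGroup.mk' F) = ⊤ := by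
        by_contra hne
        exact (Core.lt_normalizer_of_isNilpotent hne).ne' h1.2
      rw [← comap_map_mk', h2, comap_top]
    have h1 : ∀ p : Nat.Primes, ∃ H : Subgroup G, IsPiHall {(p : ℕ)}ᶜ H ∧
        C ≤ normalizer (H : Set G) := fun p => by
      have hs := QuotientGroup.mk'_surjective (pPrimeCore p G)
      have := (inferInstance : (pCore p G).Normal).map _ hs
      have hFle : F ≤ pCore p G ⊔ pPrimeCore p G := by
        have h2 := congrArg (map F.subtype) (Core.pCore_sup_pPrimeCore_of_isNilpotent (G := F) p.2)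
        rw [Subgroup.map_sup, Core.map_pCore_of_normal, Core.map_pPrimeCore_of_normal,
          ← MonoidHom.range_eq_map, range_subtype] at h2
        exact h2.ge.trans (sup_le_sup inf_le_left inf_le_left)
      obtain ⟨Q, hQ, hQn⟩ := Coprime.exists_isPiHall_normalizer_eq_of_isCarter p.2
        ((Core.isPGroup_pCore p G).map (QuotientGroup.mk' (pPrimeCore p G)))
        (Coprime.isCarter_map_mk' (pPrimeCore p G) hC) (by
          apply comap_injective hs
          rw [← Subgroup.map_sup, comap_map_mk', comap_top, eq_top_iff, ← hCF, sup_assoc]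
          exact sup_le_sup_left hFle _)
      refine ⟨Q.comap (QuotientGroup.mk' _), Coprime.isPiHall_iff.mpr ⟨?_, ?_⟩, ?_⟩
      · rw [card_comap_mk']
        exact ((Coprime.IsPiNum.compl_singleton_iff p.2).mpr
          (Core.coprime_card_pPrimeCore p G)).mul (Coprime.isPiHall_iff.mp hQ).1
      · rw [index_comap_mk']; exact (Coprime.isPiHall_iff.mp hQ).2
      · rw [← comap_normalizer_eq_of_surjective _ hs, hQn]
        exact le_comap_map _ _
    choose K hK hCK using h1
    have hK' := isComplementSystem_iff.mpr hK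
    refine ⟨K, hK', ?_⟩
    have h2 : C ≤ systemNormalizer K := le_iInf hCK
    by_contra hne
    have := systemNormalizer_nilpotent hK'
    have h3 := Core.lt_inf_normalizer_of_isNilpotent (lt_of_le_of_ne h2 hne)
    rw [hC.2] at h3
    exact h3.not_ge inf_le_right
  refine ⟨key C, ?_⟩
  rintro ⟨K, hK, rfl⟩
  obtain ⟨C, hC⟩ := Coprime.exists_isCarterSubgroup G
  obtain ⟨L, hL, rfl⟩ := key C hC
  obtain ⟨g, hg⟩ := complementSystem_conj hL hK
  rw [show K = fun q => MulAut.conj g • L q from funext fun q => (hg q).symm,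
    systemNormalizer_conj]
  exact Coprime.isCarter_conj_smul hC g

end CfsgLib.SolvStruct
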